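import Cfsg.Agent.S0163
import Cfsg.Agent.CharactersDeep.PiPart

/-!
# Generalized characters vanishing on `p`-singular elements

`mem_closure`: a generalized character `θ` of `G` with `θ g = 0` for all `g` of order divisible by `p` is a
`ℤ`-combination of functions induced from linear characters of subgroups of order prime to `p`.
-/

set_option autoImplicit false

open scoped ComplexConjugate
open Cfsg

namespace Cfsg.Agent.H232.PI

open Cfsg.Agent.Characters

universe u

/-- functions induced from linear characters of `p'`-subgroups -/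
def linSet (G : Type u) [Group G] [Fintype G] (p : ℕ) : Set (G → ℂ) :=
  {f | ∃ (H : Subgroup G) (l : H →* ℂˣ), ¬ p ∣ Nat.card H ∧ f = indFun H (fun h => (l h : ℂ))}

section

theorem gen_cf {G : Type u} [Group G] {ψ : G → ℂ} (h : IsGeneralizedCharacter G ψ) : IsClassFunction G ψ := by
  obtain ⟨a, b, ha, hb, rfl⟩ := h
  intro g x
  rw [Pi.sub_apply, Pi.sub_apply, Core.isCharacter_isClassFunction ha g x, Core.isCharacter_isClassFunction hb g x]

variable {G : Type u} [Group G] [Fintype G] {p : ℕ}

theorem ind_gen (E : Subgroup G) [Fintype E] (H' : Subgroup E) (l : H' →* ℂˣ) (hH : ¬ p ∣ Nat.card H') :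
    indFun E (indFun H' (fun h => (l h : ℂ))) ∈ linSet G p := by
  obtain ⟨H, hHE, rfl⟩ : ∃ H : Subgroup G, H ≤ E ∧ H' = H.subgroupOf E := by
    refine ⟨H'.map E.subtype, ?_, ?_⟩
    · rintro x ⟨y, -, rfl⟩
      exact y.2
    · exact (Subgroup.comap_map_eq_self_of_injective E.subtype_injective H').symm
  let e := Subgroup.subgroupOfEquivOfLe hHE
  let mu : H →* ℂˣ := l.comp e.symm.toMonoidHom
  have h1 := S0147.result H E hHE (fun h => (mu h : ℂ))
  have h2 : (fun x : H.subgroupOf E => ((mu ⟨((x : E) : G), Subgroup.mem_subgroupOf.mp x.2⟩ : ℂˣ) : ℂ)) =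
      fun x => (l x : ℂ) := by
    funext x
    have h3 : (⟨((x : E) : G), Subgroup.mem_subgroupOf.mp x.2⟩ : H) = e x := rfl
    rw [h3]
    change ((l (e.symm (e x)) : ℂˣ) : ℂ) = _
    rw [e.symm_apply_apply]
  rw [h2] at h1
  rw [h1]
  exact ⟨H, mu, by rwa [← Nat.card_congr e.toEquiv], rfl⟩

/-- transitivity -/
theorem ind_closure (E : Subgroup G) [Fintype E] {f : E → ℂ} (hf : f ∈ AddSubgroup.closure (linSet E p)) :
    indFun E f ∈ AddSubgroup.closure (linSet G p) := by
  induction hf using AddSubgroup.closure_induction with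
  | mem x hx =>
    obtain ⟨H, l, hH, rfl⟩ := hx
    exact AddSubgroup.subset_closure (ind_gen E H l hH)
  | zero =>
    rw [Brauer.indFun_zero]
    exact zero_mem _
  | add x y _ _ hx hy =>
    rw [Brauer.indFun_add]
    exact add_mem hx hy
  | neg x _ hx =>
    rw [Brauer.indFun_neg]
    exact neg_mem hx

/-- nilpotent `p'`-groups: everything -/
theorem nil_closure [Group.IsNilpotent G] (hG : ¬ p ∣ Nat.card G) {f : G → ℂ} (hf : IsGeneralizedCharacter G f) :
    f ∈ AddSubgroup.closure (linSet G p) := by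
  classical
  have : Finite (IrrCharacter G) := Core.finite_irr
  have : Fintype (IrrCharacter G) := Fintype.ofFinite _
  obtain ⟨m, rfl⟩ := Core.isGeneralizedCharacter_iff.1 hf
  refine AddSubgroup.sum_mem _ fun χ _ => AddSubgroup.zsmul_mem _ (AddSubgroup.subset_closure ?_) _
  obtain ⟨H, l, hl⟩ := S0176.result (G := G) (χ : G → ℂ) χ.2
  exact ⟨H, l, fun h => hG (h.trans (Subgroup.card_subgroup_dvd_card H)), hl⟩

/-- elementary groups -/
theorem elem_closure (hp : p.Prime) {q : ℕ} (hq : q.Prime) (hE : IsElementary q G) {ψ : G → ℂ}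
    (hψ : IsGeneralizedCharacter G ψ) (h0 : ∀ g, p ∣ orderOf g → ψ g = 0) :
    ψ ∈ AddSubgroup.closure (linSet G p) := by
  classical
  have hG : Nat.card G ≠ 0 := Nat.card_pos.ne'
  have hcop : (ordCompl[p] (Nat.card G)).Coprime (ordProj[p] (Nat.card G)) :=
    (Nat.coprime_ordCompl hp hG).symm.pow_right _
  have hcard : Nat.card G ∣ ordCompl[p] (Nat.card G) * ordProj[p] (Nat.card G) := by
    rw [mul_comm, Nat.ordProj_mul_ordCompl_eq_self]
  obtain ⟨e, he1, he0⟩ := CharactersDeep.PiPart.exists_exponent hcop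
  set m := ordCompl[p] (Nat.card G) with hm
  set n := ordProj[p] (Nat.card G) with hn
  have hpm : ¬ p ∣ m := Nat.not_dvd_ordCompl hp hG
  let π : G →* G := CharactersDeep.PiPart.powHom hq hE hcop hcard he1 he0
  have hπ : ∀ g, π g = g ^ e := fun g => rfl
  let Q : Subgroup G := π.range
  have hQm : ∀ g ∈ Q, g ^ m = 1 := by
    rintro g ⟨x, rfl⟩
    rw [hπ]
    exact CharactersDeep.PiPart.pow_pow_eq_one he0 (by rwa [mul_comm] at hcard ⊢) x
  have hQ : ∀ g, ¬ p ∣ orderOf g ↔ g ∈ Q := by
    intro g
    constructor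
    · intro h
      have h1 : orderOf g ∣ m := by
        have h2 : orderOf g ∣ m * n := (orderOf_dvd_natCard g).trans hcard
        refine Nat.Coprime.dvd_of_dvd_mul_right ?_ h2
        exact Nat.Coprime.pow_right _ ((Nat.Prime.coprime_iff_not_dvd hp).2 h).symm
      exact ⟨g, by rw [hπ]; exact CharactersDeep.PiPart.pow_eq_self he1 (orderOf_dvd_iff_pow_eq_one.1 h1)⟩
    · intro h h1
      exact hpm (h1.trans (orderOf_dvd_of_pow_eq_one (hQm g h)))
  have hQc : ¬ p ∣ Nat.card Q := by
    intro h
    have : Fact p.Prime := ⟨hp⟩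
    obtain ⟨x, hx⟩ := exists_prime_orderOf_dvd_card' p h
    refine (hQ (x : G)).2 x.2 ?_
    rw [Subgroup.orderOf_coe, hx]
  have hQn : ∀ (x g : G), x⁻¹ * g * x ∈ Q ↔ g ∈ Q := by
    intro x g
    rw [← hQ, ← hQ]
    have h1 : orderOf (x⁻¹ * g * x) = orderOf g := by
      have h2 := (MulAut.conj x⁻¹).orderOf_eq g
      rwa [MulAut.conj_apply, inv_inv] at h2
    rw [h1]
  let η : Q → ℂ := fun y => ((Nat.card Q : ℂ) / Nat.card G) * ψ y
  have hψc : IsClassFunction G ψ := gen_cf hψ
  have hcG : (Nat.card G : ℂ) ≠ 0 := Nat.cast_ne_zero.2 hG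
  have hcQ : (Nat.card Q : ℂ) ≠ 0 := Nat.cast_ne_zero.2 Nat.card_pos.ne'
  have hind : ψ = indFun Q η := by
    funext g
    rw [Brauer.indFun_apply]
    by_cases hg : g ∈ Q
    · have h1 : ∀ x : G, extendByZero Q η (x⁻¹ * g * x) = ((Nat.card Q : ℂ) / Nat.card G) * ψ g := by
        intro x
        rw [Brauer.extendByZero_mem Q η ((hQn x g).2 hg)]
        change ((Nat.card Q : ℂ) / Nat.card G) * ψ (x⁻¹ * g * x) = _
        have h2 := hψc g x⁻¹
        rw [inv_inv] at h2
        rw [h2]
      rw [Finset.sum_congr rfl fun x _ => h1 x, Finset.sum_const, Finset.card_univ, nsmul_eq_mul,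
        ← Nat.card_eq_fintype_card]
      field_simp
    · have h1 : ∀ x : G, extendByZero Q η (x⁻¹ * g * x) = 0 := fun x =>
        Brauer.extendByZero_notMem Q η (fun h => hg ((hQn x g).1 h))
      rw [Finset.sum_congr rfl fun x _ => h1 x, Finset.sum_const_zero, mul_zero]
      exact h0 g (by
        by_contra h
        exact hg ((hQ g).1 h))
  have : Fintype Q := Fintype.ofFinite _
  have hη : IsGeneralizedCharacter Q η := by
    apply Brauer.isGeneralizedCharacter_of_int
    · intro y x
      change _ * ψ _ = _ * ψ _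
      congr 1
      exact hψc y x
    · intro χ hχ
      let ρ : G →* Q := π.rangeRestrict
      have hρ : ∀ y : Q, ρ y = y := by
        intro y
        apply Subtype.ext
        change π y = y
        rw [hπ]
        exact CharactersDeep.PiPart.pow_eq_self he1 (hQm y y.2)
      have h1 : IsGeneralizedCharacter G (χ ∘ ρ) := Brauer.isGeneralizedCharacter_of_isCharacter
        (Core.isCharacter_comp ρ (Core.isIrr_isCharacter hχ))
      obtain ⟨a, b, ha, hb, hab⟩ := hψ
      obtain ⟨na, hna⟩ := Core.classInner_isNat ha (Core.isCharacter_comp ρ (Core.isIrr_isCharacter hχ))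
      obtain ⟨nb, hnb⟩ := Core.classInner_isNat hb (Core.isCharacter_comp ρ (Core.isIrr_isCharacter hχ))
      refine ⟨(na : ℤ) - nb, ?_⟩
      have h2 : classInner ψ (χ ∘ ρ) = (((na : ℤ) - nb : ℤ) : ℂ) := by
        rw [hab, Core.classInner_sub_left, hna, hnb]
        push_cast
        ring
      rw [← h2, Core.classInner_def, Core.classInner_def]
      have h3 : ∑ g : G, ψ g * conj ((χ ∘ ρ) g) = ∑ y : Q, ψ y * conj (χ y) := by
        rw [← Finset.sum_subset (Finset.subset_univ (Finset.univ.filter fun g => g ∈ Q))]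
        · rw [Finset.sum_subtype (Finset.univ.filter fun g => g ∈ Q) (p := fun g => g ∈ Q) (fun x => by simp)]
          refine Finset.sum_congr rfl fun y _ => ?_
          rw [Function.comp_apply, hρ]
        · intro g _ hg
          rw [h0 g, zero_mul]
          by_contra h
          exact hg (by simpa using (hQ g).1 h)
      rw [h3, Finset.mul_sum, Finset.mul_sum]
      refine Finset.sum_congr rfl fun y _ => ?_
      change (Nat.card Q : ℂ)⁻¹ * (((Nat.card Q : ℂ) / Nat.card G) * ψ y * _) = _
      field_simp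
  have : Group.IsNilpotent G := Elementary.isNilpotent_of_isElementary hq hE
  rw [hind]
  exact ind_closure Q (nil_closure hQc hη)

/-- **Generalized characters vanishing on `p`-singular elements.** -/
theorem mem_closure (hp : p.Prime) {θ : G → ℂ} (hθ : IsGeneralizedCharacter G θ)
    (h0 : ∀ g, p ∣ orderOf g → θ g = 0) : θ ∈ AddSubgroup.closure (linSet G p) := by
  have key : ∀ f ∈ AddSubgroup.closure {f : G → ℂ | ∃ (E : Subgroup G) (p : ℕ) (φ : E → ℂ),
      p.Prime ∧ Cfsg.IsElementary p E ∧ Cfsg.IsCharacter E φ ∧ f = Cfsg.indFun E φ},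
      f * θ ∈ AddSubgroup.closure (linSet G p) := by
    intro f hf
    induction hf using AddSubgroup.closure_induction with
    | mem x hx =>
      obtain ⟨E, q, φ, hq, hE, hφ, rfl⟩ := hx
      have : Fintype E := Fintype.ofFinite _
      rw [Brauer.indFun_mul E φ θ (gen_cf hθ)]
      apply ind_closure
      obtain ⟨a, b, ha, hb, hab⟩ := hθ
      refine elem_closure hp hq hE (Brauer.isGeneralizedCharacter_mul
        (Brauer.isGeneralizedCharacter_of_isCharacter hφ) ?_) fun g hg => ?_
      · exact ⟨_, _, Brauer.isCharacter_restrict ha E, Brauer.isCharacter_restrict hb E, by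
          funext g
          simp [hab]⟩
      · rw [h0 g (by rwa [Subgroup.orderOf_coe]), mul_zero]
    | zero => rw [zero_mul]; exact zero_mem _
    | add x y _ _ hx hy => rw [add_mul]; exact add_mem hx hy
    | neg x _ hx => rw [neg_mul]; exact neg_mem hx
  have h1 := key 1 (Characters.Brauer.one_mem_brauer G)
  rwa [one_mul] at h1

end

end Cfsg.Agent.H232.PI
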